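/-
P30: the 2-group computation at the end of the dihedral case.
-/
import Cfsg.Agent.P30.Core
import Cfsg.Agent.H3.RankOne
import Cfsg.Agent.H5.SubConj

set_option autoImplicit false
set_option linter.unusedSectionVars false

namespace Cfsg.Agent.P30

open Subgroup Cfsg Cfsg.Agent Cfsg.Agent.FT MulAction Cfsg.Agent.P6
open scoped commutatorElement

namespace D59

variable {G : Type*} [Group G] [Finite G]

theorem cyc {B : Subgroup G} (hB : IsPGroup 2 B) (hc : ∀ a ∈ B, ∀ b ∈ B, ⁅a, b⁆ ∈ center G) {r : G}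
    (hu : ∀ y ∈ B, y * y ∈ center G → y ∈ center G ∨ y * r ∈ center G) :
    IsCyclic (B.map (QuotientGroup.mk' (center G))) := by
  have : Fact (Nat.Prime 2) := ⟨Nat.prime_two⟩
  by_contra hn
  have hab : IsMulCommutative (B.map (QuotientGroup.mk' (center G))) := by
    rw [isMulComm_iff_le_cent]
    rintro _ ⟨a, ha, rfl⟩
    rw [mem_cent]
    rintro _ ⟨b, hb, rfl⟩
    rw [← commutatorElement_eq_one_iff_mul_comm, ← map_commutatorElement]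
    exact (QuotientGroup.eq_one_iff _).2 (hc b hb a ha)
  have h4 := H3.sq_le_card_omegaOne_of_not_isCyclic (hB.map _) hab hn
  have h2 : (Cfsg.omegaOne 2 (B.map (QuotientGroup.mk' (center G))) : Set (G ⧸ center G)) ⊆
      {1, (QuotientGroup.mk' (center G) r)⁻¹} := by
    intro y hy
    obtain ⟨⟨a, ha, rfl⟩, h⟩ := (H3.mem_omegaOne_of_comm hab).1 hy
    rw [pow_two, ← map_mul] at h
    rcases hu a ha ((QuotientGroup.eq_one_iff _).1 h) with h | h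
    · exact Or.inl ((QuotientGroup.eq_one_iff _).2 h)
    · refine Or.inr (eq_inv_of_mul_eq_one_left ?_)
      rw [← map_mul]
      exact (QuotientGroup.eq_one_iff _).2 h
  have h3 := (Set.ncard_le_ncard h2).trans ((Set.ncard_insert_le _ _).trans (by rw [Set.ncard_singleton]))
  rw [← SetLike.coe_sort_coe, Nat.card_coe_set_eq] at h4
  omega

theorem mem_sup {S : Subgroup G} {t g : G} (tN : t ∈ 𝐍(S)) (ht : t * t ∈ S)
    (hg : g ∈ S ⊔ zpowers t) : g ∈ S ∨ g * t⁻¹ ∈ S := by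
  rw [sup_comm] at hg
  obtain ⟨n, hn, _, ⟨k, rfl⟩, rfl⟩ := (H1.mem_sup_iff_of_le_normalizer' (zpowers_le.2 tN)).1 hg
  rcases Int.even_or_odd' k with ⟨m, rfl | rfl⟩
  · left
    simp only [zpow_mul, zpow_ofNat, pow_two]
    exact mul_mem hn (zpow_mem ht m)
  · right
    simp only [zpow_add, pow_one, zpow_mul, zpow_ofNat, pow_two, mul_assoc, mul_inv_cancel, mul_one]
    exact mul_mem hn (zpow_mem ht m)

structure H (S : Subgroup G) (t r ζ : G) : Prop where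
  hS : IsPGroup 2 S
  hZ : center G ≤ S
  tN : t ∈ 𝐍(S)
  tS : t ∉ S
  ht : t * t = ζ
  hζ : ζ ∈ center G
  h1 : ζ ≠ 1
  rS : r ∈ S
  rC : S ≤ 𝐂[r]
  rt : t * r * t⁻¹ = r⁻¹
  hr : r * r = ζ
  E : ∀ j ∈ S, j * j = 1 → j * t = t * j → j ∈ center G
  Φ : ∀ g ∈ S, ⁅t, g⁆ ∈ center G → ⁅t, g⁆ = 1 ∨ ⁅t, g⁆ = ζ
  h2 : ∀ y ∈ S, t * y * t⁻¹ = y⁻¹ → y ∉ center G → ∃ g : G, g * y * g⁻¹ ∈ S ∧
    S ≤ 𝐂[g * y * g⁻¹] ∧ t * (g * y * g⁻¹) * t⁻¹ = (g * y * g⁻¹)⁻¹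

theorem cz {z : G} (hz : z ∈ center G) (g : G) : g * z * g⁻¹ = z := by
  rw [mem_center_iff.1 hz g, mul_inv_cancel_right]

theorem le_cz {z : G} (hz : z ∈ center G) (S : Subgroup G) : S ≤ 𝐂[z] := fun g _ =>
  mem_cent1.2 (mem_center_iff.1 hz g).symm

namespace H

variable {S : Subgroup G} {t r ζ : G} (h : H S t r ζ)
include h

theorem zz : ζ * ζ = 1 := by
  have e : t * (r * r) * t⁻¹ = (r * r)⁻¹ := by
    rw [mul_inv_rev, ← h.rt]; group
  rw [h.hr, cz h.hζ] at e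
  nth_rw 1 [e]
  exact inv_mul_cancel ζ

theorem E' {j : G} (hj : j ∈ S) (h2 : j * j = 1) (hi : t * j * t⁻¹ = j⁻¹) : j ∈ center G := by
  rw [inv_eq_of_mul_eq_one_right h2] at hi
  exact h.E j hj h2 (mul_inv_eq_iff_eq_mul.1 hi).symm

theorem sq_mul {y : G} (hy : y ∈ S) (e : y * y = ζ) : y * r * (y * r) = 1 := by
  have := mem_cent1.1 (h.rC hy)
  calc y * r * (y * r) = y * (r * y) * r := by group
    _ = y * y * (r * r) := by rw [this]; group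
    _ = 1 := by rw [e, h.hr, h.zz]

theorem step0 {y : G} (hy : y ∈ S) (hi : t * y * t⁻¹ = y⁻¹) (h2 : y * y ∈ center G) :
    y ∈ center G ∨ y * r ∈ center G := by
  have e : ⁅t, y⁆ = (y * y)⁻¹ := by rw [commutatorElement_def, hi, mul_inv_rev]
  rcases h.Φ y hy (e ▸ inv_mem h2) with e1 | e1
  · exact Or.inl (h.E' hy (inv_eq_one.1 (e ▸ e1)) hi)
  · have e2 : y * y = ζ := by
      rw [← inv_eq_of_mul_eq_one_right h.zz, ← e1, e, inv_inv]
    refine Or.inr (h.E' (mul_mem hy h.rS) (h.sq_mul hy e2) ?_)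
    calc t * (y * r) * t⁻¹ = t * y * t⁻¹ * (t * r * t⁻¹) := by group
      _ = _ := by rw [hi, h.rt, ← mul_inv_rev, mem_cent1.1 (h.rC hy)]

theorem cent0 {y : G} (e : y ∈ center G ∨ y * r ∈ center G) : S ≤ 𝐂[y] := by
  rcases e with e | e
  · exact le_cz e S
  · intro g hg
    exact mem_cent1_comm.1 ((Subgroup.mul_mem_cancel_right _ (mem_cent1_comm.1 (h.rC hg))).1
      (mem_cent1_comm.1 (le_cz e S hg)))

end H

/-- The central elements of `S` inverted by `t`. -/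
def A (S : Subgroup G) (t : G) : Subgroup G where
  carrier := {y | y ∈ S ∧ S ≤ 𝐂[y] ∧ t * y * t⁻¹ = y⁻¹}
  one_mem' := ⟨one_mem _, by rw [cent1_one]; exact le_top, by simp⟩
  mul_mem' := by
    rintro a b ⟨a1, a2, a3⟩ ⟨b1, b2, b3⟩
    refine ⟨mul_mem a1 b1, fun g hg => mem_cent1_comm.1
      (mul_mem (mem_cent1_comm.1 (a2 hg)) (mem_cent1_comm.1 (b2 hg))), ?_⟩
    calc t * (a * b) * t⁻¹ = t * a * t⁻¹ * (t * b * t⁻¹) := by group
      _ = _ := by rw [a3, b3, ← mul_inv_rev, mem_cent1.1 (a2 b1)]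
  inv_mem' := by
    rintro a ⟨a1, a2, a3⟩
    exact ⟨inv_mem a1, by rwa [cent1_inv], by rw [← conj_inv, a3]⟩

namespace H

variable {S : Subgroup G} {t r ζ : G} (h : H S t r ζ)
include h

theorem cycA : IsCyclic ((A S t).map (QuotientGroup.mk' (center G))) :=
  cyc (r := r) (h.hS.to_le fun _ hy => hy.1)
    (fun a ha b hb => by
      rw [commutatorElement_eq_one_iff_mul_comm.2 (mem_cent1.1 (ha.2.1 hb.1))]; exact one_mem _)
    fun y hy h2 => h.step0 hy.1 hy.2.2 h2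

theorem step6 {y : G} (hy : y ∈ S) (hi : t * y * t⁻¹ = y⁻¹) : S ≤ 𝐂[y] := by
  obtain ⟨n, hn⟩ := h.hS ⟨y, hy⟩
  have hn' : y ^ 2 ^ n = 1 := congrArg Subtype.val hn
  clear hn
  induction n generalizing y with
  | zero =>
    rw [pow_zero, pow_one] at hn'
    rw [hn', cent1_one]; exact le_top
  | succ n ih =>
    have i2 : t * (y * y) * t⁻¹ = (y * y)⁻¹ := by rw [mul_inv_rev, ← hi]; group
    have a2 : y * y ∈ A S t := ⟨mul_mem hy hy, ih (mul_mem hy hy) i2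
      (by rw [← pow_two, ← pow_mul, ← pow_succ', hn']), i2⟩
    by_cases hz : y ∈ center G
    · exact le_cz hz S
    obtain ⟨g, hg⟩ := h.h2 y hy hi hz
    have hρ : g * y * g⁻¹ ∈ A S t := hg
    set ρ := g * y * g⁻¹ with hρd
    let π := QuotientGroup.mk' (center G)
    have e : zpowers (π (y * y)) = zpowers (π (ρ * ρ)) := by
      refine H5.eq_of_le_isCyclic h.cycA (zpowers_le.2 (mem_map_of_mem _ a2))
        (zpowers_le.2 (mem_map_of_mem _ (mul_mem hρ hρ))) ?_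
      have : π (ρ * ρ) = π g * π (y * y) * (π g)⁻¹ := by
        rw [← map_inv, ← map_mul, ← map_mul, hρd]; congr 1; group
      rw [this, zpowers_conj, card_conj]
    obtain ⟨k, hk⟩ : π (y * y) ∈ zpowers (π (ρ * ρ)) := e ▸ mem_zpowers _
    have hσ : ρ ^ (-k) ∈ A S t := zpow_mem hρ _
    have c1 : ρ ^ (-k) * y = y * ρ ^ (-k) := mem_cent1.1 (hσ.2.1 hy)
    have m : y * ρ ^ (-k) * (y * ρ ^ (-k)) ∈ center G := by
      have e1 : y * ρ ^ (-k) * (y * ρ ^ (-k)) = y * y * ((ρ * ρ) ^ k)⁻¹ := by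
        calc y * ρ ^ (-k) * (y * ρ ^ (-k)) = y * (ρ ^ (-k) * y) * ρ ^ (-k) := by group
          _ = _ := by rw [c1, ← pow_two ρ, ← zpow_natCast, ← zpow_mul]; group
      rw [e1, ← QuotientGroup.eq_one_iff]
      change π _ = 1
      rw [map_mul, map_inv, map_zpow, ← hk, mul_inv_cancel]
    have c2 := h.cent0 (h.step0 (mul_mem hy hσ.1) (by
      calc t * (y * ρ ^ (-k)) * t⁻¹ = t * y * t⁻¹ * (t * ρ ^ (-k) * t⁻¹) := by group
        _ = _ := by rw [hi, hσ.2.2, ← mul_inv_rev, c1]) m)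
    intro v hv
    exact mem_cent1_comm.1 ((Subgroup.mul_mem_cancel_right _ (mem_cent1_comm.1 (hσ.2.1 hv))).1
      (mem_cent1_comm.1 (c2 hv)))

theorem jA {w : G} (hw : w ∈ S) : w⁻¹ * (t * w * t⁻¹) ∈ A S t := by
  have m : w⁻¹ * (t * w * t⁻¹) ∈ S := mul_mem (inv_mem hw) ((mem_normalizer_iff.1 h.tN w).1 hw)
  have i : t * (w⁻¹ * (t * w * t⁻¹)) * t⁻¹ = (w⁻¹ * (t * w * t⁻¹))⁻¹ := by
    have e : t * t * w * (t * t)⁻¹ = w := by
      rw [h.ht, ← mem_center_iff.1 h.hζ w, mul_inv_cancel_right]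
    calc t * (w⁻¹ * (t * w * t⁻¹)) * t⁻¹ = t * w⁻¹ * t⁻¹ * (t * t * w * (t * t)⁻¹) := by group
      _ = _ := by rw [e]; group
  exact ⟨m, h.step6 m i, i⟩

theorem j_mul {v w : G} (hv : v ∈ S) (hw : w ∈ S) :
    (v * w)⁻¹ * (t * (v * w) * t⁻¹) = v⁻¹ * (t * v * t⁻¹) * (w⁻¹ * (t * w * t⁻¹)) := by
  have := mem_cent1.1 ((h.jA hv).2.1 (inv_mem hw))
  calc (v * w)⁻¹ * (t * (v * w) * t⁻¹) = w⁻¹ * (v⁻¹ * (t * v * t⁻¹)) * (t * w * t⁻¹) := by group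
    _ = _ := by rw [← this]; group

omit h in
theorem j_one {w : G} : w⁻¹ * (t * w * t⁻¹) = 1 ↔ w ∈ 𝐂[t] := by
  rw [mem_cent1, inv_mul_eq_one, eq_mul_inv_iff_mul_eq, eq_comm]

theorem step1 {w : G} (hw : w ∈ S) (h2 : w * w ∈ center G) : w ∈ 𝐂[t] ∨ w * r ∈ 𝐂[t] := by
  have e1 : w⁻¹ * (t * w * t⁻¹) * (w⁻¹ * (t * w * t⁻¹)) = 1 := by
    rw [← h.j_mul hw hw, cz h2, inv_mul_cancel]
  have hz := h.E' (h.jA hw).1 e1 (h.jA hw).2.2
  have e2 : ⁅t, w⁆ = w⁻¹ * (t * w * t⁻¹) := by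
    rw [← cz hz w, commutatorElement_def]; group
  rcases h.Φ w hw (e2 ▸ hz) with e | e
  · exact Or.inl (j_one.1 (e2 ▸ e))
  · refine Or.inr (j_one.1 ?_)
    rw [h.j_mul hw h.rS, ← e2, e, h.rt, ← mul_inv_rev, h.hr, mul_inv_cancel]

theorem normC : S ≤ 𝐍(S ⊓ 𝐂[t]) := fun v hv => by
  refine mem_norm_of_conj_le fun y hy => ?_
  obtain ⟨w, ⟨w1, w2⟩, rfl⟩ := mem_conj'.1 hy
  refine ⟨S.mul_mem (S.mul_mem hv w1) (S.inv_mem hv), j_one.1 ?_⟩
  rw [h.j_mul (mul_mem hv w1) (inv_mem hv), h.j_mul hv w1, j_one.2 w2, mul_one,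
    ← h.j_mul hv (inv_mem hv)]
  simp

theorem step8
    (β : ∀ c ∈ S, c ∉ center G → c * c ∈ center G → (∀ g ∈ S ⊔ zpowers t, ⁅c, g⁆ ∈ center G) →
      ∃ q ∈ S ⊔ zpowers t, q * q = ζ ∧ c * q ≠ q * c)
    (TA : ∀ i : G, i * i = 1 → i ∉ center G → ∃ u ∈ center G, u * u = ζ) :
    S ⊓ 𝐂[t] ≤ center G := by
  by_contra hn
  let π := QuotientGroup.mk' (center G)
  have t2 : IsPGroup 2 (zpowers t) := by
    rintro ⟨_, k, rfl⟩
    refine ⟨2, Subtype.ext ?_⟩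
    change (t ^ k) ^ 2 ^ 2 = 1
    rw [← zpow_natCast, ← zpow_mul, mul_comm, zpow_mul, zpow_natCast]
    have : t ^ 2 ^ 2 = t * t * (t * t) := by norm_num [pow_succ, mul_assoc]
    rw [this, h.ht, h.zz, one_zpow]
  have hT : IsPGroup 2 ↥(S ⊔ zpowers t) := by
    rw [sup_comm]; exact isPGroup_sup t2 h.hS (zpowers_le.2 h.tN)
  have hN : S ⊔ zpowers t ≤ 𝐍(S ⊓ 𝐂[t]) := sup_le h.normC (zpowers_le.2 (cent_le_norm _
    (mem_cent_iff_cent1.2 inf_le_right)))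
  have hb : (S ⊓ 𝐂[t]).map π ⊓ 𝐂((S ⊔ zpowers t).map π) ≠ ⊥ := by
    refine inf_center_ne_bot (isNilpotent_of_isPGroup Nat.prime_two (hT.map π))
      ⟨map_mono (inf_le_left.trans le_sup_left), (map_mono hN).trans (le_normalizer_map _)⟩ ?_
    rw [Ne, Subgroup.map_eq_bot_iff, QuotientGroup.ker_mk']
    exact hn
  obtain ⟨_, ⟨⟨c, ⟨c1, c2⟩, rfl⟩, c3⟩, c4⟩ := exists_inv_of_even
    (X := (S ⊓ 𝐂[t]).map π ⊓ 𝐂((S ⊔ zpowers t).map π)) fun o => by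
      obtain ⟨⟨y, hy⟩, y1⟩ := ne_bot_iff_exists_ne_one.1 hb
      exact y1 (Subtype.ext (one_of_odd_mem ((h.hS.to_le inf_le_left).map π) hy.1
        (odd_orderOf_of_mem o hy)))
  obtain ⟨q, hq, q2, q3⟩ := β c c1 (fun m => c4.ne ((QuotientGroup.eq_one_iff _).2 m))
    ((QuotientGroup.eq_one_iff _).1 (by have := c4.sq; rwa [← map_mul] at this)) fun g hg => by
      rw [← QuotientGroup.eq_one_iff]
      change π _ = 1
      rw [map_commutatorElement, commutatorElement_eq_one_iff_mul_comm]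
      exact (mem_cent.1 c3 _ (mem_map_of_mem _ hg)).symm
  apply q3
  rcases mem_sup h.tN (h.ht ▸ h.hZ h.hζ) hq with hq | hq
  · have fin : S ≤ 𝐂[q] → c * q = q * c := fun m => (mem_cent1.1 (m c1)).symm
    rcases h.step1 hq (q2 ▸ h.hζ) with e | e
    · have e' := mem_cent1.1 e
      obtain ⟨u, hu, u2⟩ := TA (t * q) (by
        calc t * q * (t * q) = t * (q * t) * q := by group
          _ = t * t * (q * q) := by rw [← e']; group
          _ = 1 := by rw [h.ht, q2, h.zz])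
        fun m => h.tS ((Subgroup.mul_mem_cancel_right _ hq).1 (h.hZ m))
      have := h.E (q * u) (mul_mem hq (h.hZ hu)) (by
        calc q * u * (q * u) = q * (u * q) * u := by group
          _ = q * q * (u * u) := by rw [← mem_center_iff.1 hu q]; group
          _ = 1 := by rw [u2, q2, h.zz])
        (mem_cent1.1 (mul_mem e (mem_cent1_comm.1 (le_cz hu ⊤ (mem_top t))))).symm
      exact fin (le_cz ((Subgroup.mul_mem_cancel_right _ hu).1 this) S)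
    · exact fin (h.cent0 (Or.inr (h.E _ (mul_mem hq h.rS) (h.sq_mul hq q2) (mem_cent1.1 e).symm)))
  · have i : t * (q * t⁻¹) * t⁻¹ = (q * t⁻¹)⁻¹ := by
      have e : q * q * (t * t)⁻¹ = 1 := by rw [q2, h.ht, mul_inv_cancel]
      calc t * (q * t⁻¹) * t⁻¹ = t * q⁻¹ * (q * q * (t * t)⁻¹) := by group
        _ = _ := by rw [e]; group
    have m : q * t⁻¹ ∈ 𝐂[c] := mem_cent1_comm.1 (h.step6 hq i c1)
    exact mem_cent1.1 ((Subgroup.mul_mem_cancel_right _ (inv_mem (mem_cent1_comm.1 c2))).1 m)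

theorem step9 (h8 : S ⊓ 𝐂[t] ≤ center G) :
    ∃ w ∈ S, w ∉ center G ∧ S ≤ zpowers w ⊔ center G ∧ w * (t * w * t⁻¹) ∈ center G := by
  let π := QuotientGroup.mk' (center G)
  have hc : IsCyclic (S.map π) := by
    refine cyc (r := r) h.hS (fun a ha b hb => h8 ⟨S.mul_mem (S.mul_mem (S.mul_mem ha hb) (S.inv_mem ha))
      (S.inv_mem hb), j_one.1 ?_⟩) fun y hy h2 => (h.step1 hy h2).imp (fun m => h8 ⟨hy, m⟩)
        fun m => h8 ⟨mul_mem hy h.rS, m⟩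
    have inv : ∀ a ∈ S, a⁻¹⁻¹ * (t * a⁻¹ * t⁻¹) = (a⁻¹ * (t * a * t⁻¹))⁻¹ := fun a ha => by
      refine eq_inv_of_mul_eq_one_right ?_
      rw [← h.j_mul ha (inv_mem ha)]; simp
    rw [commutatorElement_def, h.j_mul (mul_mem (mul_mem ha hb) (inv_mem ha)) (inv_mem hb),
      h.j_mul (mul_mem ha hb) (inv_mem ha), h.j_mul ha hb, inv a ha, inv b hb,
      mem_cent1.1 ((h.jA ha).2.1 (h.jA hb).1)]
    group
  obtain ⟨x, hx⟩ := isCyclic_iff_zpowers.1 hc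
  obtain ⟨w, hw, rfl⟩ : x ∈ S.map π := hx ▸ mem_zpowers x
  have hle : S ≤ zpowers w ⊔ center G := by
    have := comap_mono (f := π) hx.ge
    rw [← MonoidHom.map_zpowers, comap_map_eq, comap_map_eq, QuotientGroup.ker_mk'] at this
    exact le_sup_left.trans this
  have hC : S ≤ 𝐂[w] := hle.trans (sup_le (zpowers_le.2 (self_mem_cent1 w)) fun z hz =>
    mem_cent1_comm.1 (le_cz hz ⊤ (mem_top w)))
  have tw : t * w * t⁻¹ ∈ S := (mem_normalizer_iff.1 h.tN w).1 hw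
  refine ⟨w, hw, fun m => ?_, hle, h8 ⟨mul_mem hw tw, mem_cent1_comm.1 (mem_cent1_iff_conj.2 ?_)⟩⟩
  · have hr : r ∈ center G := (hle.trans (sup_le (zpowers_le.2 m) le_rfl)) h.rS
    have := h.rt
    rw [cz hr] at this
    apply h.h1
    rw [← h.hr]
    nth_rw 1 [this]
    exact inv_mul_cancel r
  · have e : t * t * w * (t * t)⁻¹ = w := by
      rw [h.ht, ← mem_center_iff.1 h.hζ w, mul_inv_cancel_right]
    calc t * (w * (t * w * t⁻¹)) * t⁻¹ = t * w * t⁻¹ * (t * t * w * (t * t)⁻¹) := by group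
      _ = _ := by rw [e, mem_cent1.1 (hC tw)]

end H

end D59

theorem dih59 {G : Type*} [Group G] [Finite G] {S : Subgroup G} {t r ζ : G} (hS : IsPGroup 2 S)
    (hZ : center G ≤ S) (tN : t ∈ 𝐍(S)) (tS : t ∉ S) (ht : t * t = ζ) (hζ : ζ ∈ center G)
    (h1 : ζ ≠ 1) (rS : r ∈ S) (rC : S ≤ 𝐂[r]) (rt : t * r * t⁻¹ = r⁻¹) (hr : r * r = ζ)
    (E : ∀ j ∈ S, j * j = 1 → j * t = t * j → j ∈ center G)
    (Φ : ∀ g ∈ S, ⁅t, g⁆ ∈ center G → ⁅t, g⁆ = 1 ∨ ⁅t, g⁆ = ζ)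
    (h2 : ∀ y ∈ S, t * y * t⁻¹ = y⁻¹ → y ∉ center G → ∃ g : G, g * y * g⁻¹ ∈ S ∧
      S ≤ 𝐂[g * y * g⁻¹] ∧ t * (g * y * g⁻¹) * t⁻¹ = (g * y * g⁻¹)⁻¹)
    (β : ∀ c ∈ S, c ∉ center G → c * c ∈ center G → (∀ g ∈ S ⊔ zpowers t, ⁅c, g⁆ ∈ center G) →
      ∃ q ∈ S ⊔ zpowers t, q * q = ζ ∧ c * q ≠ q * c)
    (TA : ∀ i : G, i * i = 1 → i ∉ center G → ∃ u ∈ center G, u * u = ζ) :
    ∃ w ∈ S, w ∉ center G ∧ S ≤ zpowers w ⊔ center G ∧ w * (t * w * t⁻¹) ∈ center G :=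
  have h : D59.H S t r ζ := ⟨hS, hZ, tN, tS, ht, hζ, h1, rS, rC, rt, hr, E, Φ, h2⟩
  h.step9 (h.step8 β TA)

end Cfsg.Agent.P30
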